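import Cfsg.Agent.Lib.Mult.Ru.CvD

set_option autoImplicit false
set_option maxRecDepth 100000
set_option Elab.async false

namespace Cfsg.Agent.Mult.Ru

open Cfsg.Agent.CG Cfsg.Agent.CG.Ru

theorem cvc0 : cv0.chk tcR 0 1311 = true := by decide +kernel
theorem cvc1 : cv0.chk tcR 1311 461 = true := by decide +kernel
theorem cvc2 : cv0.chk tcR 1772 240 = true := by decide +kernel
theorem cvc3 : cv0.chk tcR 2012 4 = true := by decide +kernel
theorem cvc4 : cv0.chkP cvP [1] = true := by decide +kernel
theorem cvc5 : chkPairs app bs tcS cvP = true := by decide +kernel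

end Cfsg.Agent.Mult.Ru
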